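import Cfsg.Agent.Lib.ToddCox.Glue
set_option autoImplicit false
set_option maxRecDepth 100000
namespace Cfsg.Agent.Lib.ToddCox.L37C3
def E_0 : ℕ := 0x10800000400000420000010000010000000400000400000010000010400000400000410000010000010c00000400000430000010000000c0000000000003000000000000080000000000002000000000000040000000000001000000000000000000000000000000000000000100000040000044000000
end Cfsg.Agent.Lib.ToddCox.L37C3
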